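/-
Two classes of involutions: the dihedral lemma, a strong embedding type lemma, Thompson's order formula.
-/
import Cfsg.Agent.Lib.G.Basic
import Cfsg.Agent.Lib.FStar.Invol

set_option autoImplicit false
set_option linter.unusedSectionVars false
set_option linter.style.haveILetI false
set_option linter.unusedVariables false

namespace CA.XS

open Cfsg Subgroup CA

variable {G : Type*} [Group G]

theorem orderOf_eq_of_isConj {a b : G} (h : IsConj a b) : orderOf a = orderOf b := by
  obtain ⟨c, rfl⟩ := isConj_iff.1 h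
  exact ((MulAut.conj c).orderOf_eq a).symm

/-- A cyclic group has at most one involution. -/
theorem invol_unique [Finite G] {x u w : G} (hu : u ∈ zpowers x) (hw : w ∈ zpowers x) (ou : orderOf u = 2)
    (ow : orderOf w = 2) : u = w := by
  classical
  haveI := Fintype.ofFinite (zpowers x)
  by_contra hne
  have := IsCyclic.card_pow_eq_one_le (α := zpowers x) (n := 2) two_pos
  refine absurd this (not_le.2 (Finset.two_lt_card_iff.2 ⟨1, ⟨u, hu⟩, ⟨w, hw⟩, by simp, ?_, ?_, ?_, ?_, ?_⟩))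
  · simpa [Subtype.ext_iff, pow_two] using Inv.mul_self_of_orderOf ou
  · simpa [Subtype.ext_iff, pow_two] using Inv.mul_self_of_orderOf ow
  · exact fun e => Inv.ne_one_of_orderOf ou (congrArg Subtype.val e).symm
  · exact fun e => Inv.ne_one_of_orderOf ow (congrArg Subtype.val e).symm
  · exact fun e => hne (congrArg Subtype.val e)

/-- The dihedral lemma: the product of two non-conjugate involutions has a power which is an involution
commuting with both. -/
theorem exists_invol [Finite G] {a b : G} (ha : orderOf a = 2) (hb : orderOf b = 2) (h : ¬ IsConj a b) :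
    ∃ w ∈ zpowers (a * b), orderOf w = 2 ∧ w * a = a * w ∧ w * b = b * w := by
  have sa := Inv.mul_self_of_orderOf ha
  have sb := Inv.mul_self_of_orderOf hb
  obtain ⟨z, ⟨m, rfl, -⟩, h1, h2, h3, h4, -⟩ := Inv.exists_central_of_even sa sb fun ho => by
    obtain ⟨k, hk⟩ := Inv.conj_of_odd sa sb ho
    exact h (isConj_iff.2 ⟨_, hk⟩)
  exact ⟨_, pow_mem (mem_zpowers _) m, Inv.orderOf_eq_two h1 h2, h3.symm.eq, h4.symm.eq⟩

theorem existsUnique_invol [Finite G] {a b : G} (ha : orderOf a = 2) (hb : orderOf b = 2) (h : ¬ IsConj a b) :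
    ∃! w, w ∈ zpowers (a * b) ∧ orderOf w = 2 := by
  obtain ⟨w, h1, h2, -⟩ := exists_invol ha hb h
  exact ⟨w, ⟨h1, h2⟩, fun u hu => invol_unique hu.1 h1 hu.2 h2⟩

/-- An involution in `⟨a b⟩` commutes with the involutions `a` and `b`. -/
theorem comm_of_mem_zpowers {a b w : G} (ha : a * a = 1) (hb : b * b = 1) (hw : w ∈ zpowers (a * b))
    (hw2 : w * w = 1) : w * a = a * w ∧ w * b = b * w := by
  obtain ⟨k, rfl⟩ := mem_zpowers_iff.1 hw
  have h2 : (a * b) ^ (-k) = (a * b) ^ k := by rw [zpow_neg, Inv.inv_eq_self hw2]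
  have h3 := Inv.mul_zpow_left ha hb k
  have h4 := Inv.mul_zpow_right ha hb k
  rw [h2] at h3 h4
  exact ⟨h3.symm, h4.symm⟩

theorem conj_mem_of_two_classes [Finite G] {X Y : Subgroup G} (hYX : Y ≤ X)
    (h : ∀ i ∈ Y, orderOf i = 2 → X ⊓ 𝐂[i] ≤ Y) {u v : G} (hu : u ∈ Y) (hv : v ∈ Y) (ou : orderOf u = 2)
    (ov : orderOf v = 2) (huv : ¬ IsConj u v) : ∀ g ∈ X, g * v * g⁻¹ ∈ Y := fun g hg => by
  have c : IsConj v (g * v * g⁻¹) := isConj_iff.2 ⟨g, rfl⟩
  have m : g * v * g⁻¹ ∈ X := mul_mem (mul_mem hg (hYX hv)) (inv_mem hg)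
  obtain ⟨w, h1, h2, h3, h4⟩ := exists_invol ou (orderOf_eq_of_isConj c ▸ ov) fun e => huv (e.trans c.symm)
  have wX : w ∈ X := zpowers_le.2 (mul_mem (hYX hu) m) h1
  exact h w (h u hu ou ⟨wX, mem_cent1_iff.2 h3⟩) h2 ⟨m, mem_cent1_iff.2 h4.symm⟩

theorem ncard_isConj (g : G) : {x | IsConj g x}.ncard = (𝐂[g]).index := by
  have h1 : {x | IsConj g x} = MulAction.orbit (ConjAct G) g := by
    ext x; rw [ConjAct.mem_orbit_conjAct]; exact isConj_comm
  rw [h1, ← MulAction.index_stabilizer, centralizer_eq_comap_stabilizer]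
  exact (index_comap_of_surjective _ ConjAct.toConjAct.surjective).symm

/-- The Thompson number `a(u)`: pairs `(x, y)` in `z^G × t^G` with `u ∈ ⟨x y⟩`. -/
noncomputable def aTh (z t u : G) : ℕ :=
  {p : G × G | IsConj z p.1 ∧ IsConj t p.2 ∧ u ∈ zpowers (p.1 * p.2)}.ncard

theorem aTh_conj (z t : G) {u u' : G} (h : IsConj u u') : aTh z t u = aTh z t u' := by
  obtain ⟨c, rfl⟩ := isConj_iff.1 h
  let e : G × G ≃ G × G := (MulAut.conj c).toEquiv.prodCongr (MulAut.conj c).toEquiv
  have k : ∀ {a x : G}, IsConj a (c * x * c⁻¹) ↔ IsConj a x := fun {a x} =>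
    have : IsConj x (c * x * c⁻¹) := isConj_iff.2 ⟨c, rfl⟩
    ⟨fun h => h.trans this.symm, fun h => h.trans this⟩
  rw [eq_comm, aTh, aTh, ← Set.ncard_preimage_of_injective_subset_range e.injective (by simp)]
  congr 1
  ext ⟨x, y⟩
  simp only [e, Set.mem_preimage, Set.mem_setOf_eq, Equiv.prodCongr_apply, Prod.map, MulEquiv.toEquiv_eq_coe,
    EquivLike.coe_coe, MulAut.conj_apply, k, mem_zpowers_iff, conj_mul, conj_zpow, mul_left_inj, mul_right_inj]

/-- **Thompson's order formula**. -/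
theorem thompson_order [Finite G] {z t : G} (hz : orderOf z = 2) (ht : orderOf t = 2) (hzt : ¬ IsConj z t)
    (h : ∀ i : G, orderOf i = 2 → IsConj z i ∨ IsConj t i) :
    Nat.card G = aTh z t z * Nat.card 𝐂[t] + aTh z t t * Nat.card 𝐂[z] := by
  classical
  haveI := Fintype.ofFinite G
  set Z : Finset G := {x | IsConj z x} with hZ
  set T : Finset G := {x | IsConj t x} with hT
  have cZ : Z.card = (𝐂[z]).index := by rw [← ncard_isConj, ← Set.ncard_coe_finset]; simp [hZ, -isConj_iff]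
  have cT : T.card = (𝐂[t]).index := by rw [← ncard_isConj, ← Set.ncard_coe_finset]; simp [hT, -isConj_iff]
  have dj : Disjoint Z T := Finset.disjoint_left.2 fun x h1 h2 => hzt (by
    simp only [hZ, hT, Finset.mem_filter, Finset.mem_univ, true_and] at h1 h2
    exact h1.trans h2.symm)
  have key := Finset.sum_card_bipartiteAbove_eq_sum_card_bipartiteBelow (s := Z ∪ T) (t := Z ×ˢ T)
    (fun u p => u ∈ zpowers (p.1 * p.2))
  have ab : ∀ u, ((Z ×ˢ T).bipartiteAbove (fun u p => u ∈ zpowers (p.1 * p.2)) u).card = aTh z t u := fun u => by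
    rw [aTh, ← Set.ncard_coe_finset]
    congr 1
    ext p
    simp [hZ, hT, and_assoc, -isConj_iff]
  have be : ∀ p ∈ Z ×ˢ T, ((Z ∪ T).bipartiteBelow (fun u p => u ∈ zpowers (p.1 * p.2)) p).card = 1 :=
    fun p hp => by
    simp only [hZ, hT, Finset.mem_product, Finset.mem_filter, Finset.mem_univ, true_and] at hp
    obtain ⟨w, hw, hu⟩ := existsUnique_invol (orderOf_eq_of_isConj hp.1 ▸ hz) (orderOf_eq_of_isConj hp.2 ▸ ht)
      fun e => hzt ((hp.1.trans e).trans hp.2.symm)
    refine Finset.card_eq_one.2 ⟨w, Finset.ext fun u => ?_⟩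
    simp only [hZ, hT, Finset.mem_bipartiteBelow, Finset.mem_union, Finset.mem_filter, Finset.mem_univ, true_and,
      Finset.mem_singleton]
    exact ⟨fun h1 => hu u ⟨h1.2, h1.1.elim (fun e => orderOf_eq_of_isConj e ▸ hz)
      fun e => orderOf_eq_of_isConj e ▸ ht⟩, fun e => e ▸ ⟨h w hw.2, hw.1⟩⟩
  have sZ : ∀ u ∈ Z, aTh z t u = aTh z t z := fun u hu => (aTh_conj z t (by simpa [hZ] using hu)).symm
  have sT : ∀ u ∈ T, aTh z t u = aTh z t t := fun u hu => (aTh_conj z t (by simpa [hT] using hu)).symm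
  simp only [ab] at key
  rw [Finset.sum_congr rfl be, Finset.sum_union dj, Finset.sum_congr rfl sZ, Finset.sum_congr rfl sT] at key
  simp only [Finset.sum_const, smul_eq_mul, Finset.card_product, mul_one, cZ, cT] at key
  have e1 := (𝐂[z]).index_mul_card
  have e2 := (𝐂[t]).index_mul_card
  refine Nat.eq_of_mul_eq_mul_left (Nat.card_pos (α := G)) ?_
  calc Nat.card G * Nat.card G = (𝐂[z]).index * (𝐂[t]).index * (Nat.card 𝐂[z] * Nat.card 𝐂[t]) := by
        nth_rewrite 1 [← e1]; rw [← e2]; ring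
    _ = _ := by
        rw [← key, mul_add]; nth_rewrite 1 [← e1]; rw [← e2]; ring

end CA.XS
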