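/-
The 11-dimensional Todd module (even cocode) of `M24` inside a group.
-/
import Cfsg.Agent.Lib.G.Basic
import Cfsg.Agent.Lib.Golay.Mod

set_option autoImplicit false
set_option linter.unusedSectionVars false
set_option linter.style.haveILetI false
set_option linter.unusedVariables false

namespace CA.XS

open Cfsg Subgroup CA CA.Gol
open scoped Pointwise

variable {G : Type*} [Group G]

theorem even_symmDiff {s t : Finset GolayPt} (hs : Even s.card) (ht : Even t.card) : Even (symmDiff s t).card := by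
  have := card_symmDiff_add s t
  rw [Nat.even_iff] at *
  omega

theorem even_of_CW {s : Finset GolayPt} (hs : s ∈ CW) : Even s.card := by
  rcases card_CW hs with h | h | h | h | h <;> rw [h] <;> decide

theorem even_pair {a b : GolayPt} (h : a ≠ b) : Even ({a, b} : Finset GolayPt).card := by
  rw [Finset.card_pair h]; decide

theorem even_induction {P : Finset GolayPt → Prop} (h0 : P ∅)
    (hs : ∀ s a b, Even s.card → a ≠ b → P s → P (symmDiff s {a, b})) {s : Finset GolayPt} (h : Even s.card) :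
    P s := by
  induction s using Finset.strongInductionOn with
  | _ s ih =>
  rcases s.eq_empty_or_nonempty with rfl | hn
  · exact h0
  obtain ⟨a, ha, b, hb, hab⟩ := Finset.one_lt_card.1 (show 1 < s.card by
    have := hn.card_pos; rw [Nat.even_iff] at h; omega)
  have e := even_symmDiff h (even_pair hab)
  have := hs _ a b e hab (ih _ ⟨fun x hx => by
    rcases Finset.mem_symmDiff.1 hx with h | h
    · exact h.1
    · simp only [Finset.mem_insert, Finset.mem_singleton] at h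
      rcases h with ⟨rfl | rfl, h⟩ <;> contradiction, fun h => by simpa [Finset.mem_symmDiff, ha] using h ha⟩ e)
  rwa [symmDiff_symmDiff_cancel_right] at this

theorem smul_pair (g : Equiv.Perm GolayPt) (a b : GolayPt) : g • ({a, b} : Finset GolayPt) = {g a, g b} := by
  simp [Finset.smul_finset_def]

theorem pair_symmDiff {a b c : GolayPt} (hb : b ≠ a) (hc : c ≠ a) (h : b ≠ c) :
    symmDiff ({a, b} : Finset GolayPt) {a, c} = {b, c} := by
  ext x; simp only [Finset.mem_symmDiff, Finset.mem_insert, Finset.mem_singleton]; grind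

theorem exists_third (a b : GolayPt) : ∃ c, c ≠ a ∧ c ≠ b := by
  obtain ⟨c, hc⟩ := exists_notMem (s := {a, b}) (Finset.card_le_two.trans_lt (by norm_num))
  exact ⟨c, by simpa using hc⟩

/-- Whitney's theorem for the triangular graph `T(24)`. -/
theorem whitney {φ : GolayPt → GolayPt → Finset GolayPt} (h2 : ∀ a b, a ≠ b → (φ a b).card = 2)
    (hs : ∀ a b, φ a b = φ b a) (hd : ∀ a b c, b ≠ a → c ≠ a → b ≠ c → symmDiff (φ a b) (φ a c) = φ b c)
    (hi : ∀ a b c d, b ≠ a → c ≠ a → d ≠ a → c ≠ d → φ a b ≠ φ c d) :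
    ∃ π : Equiv.Perm GolayPt, ∀ a b, a ≠ b → φ a b = {π a, π b} := by
  have one : ∀ a b c, b ≠ a → c ≠ a → b ≠ c → (φ a b ∩ φ a c).card = 1 := fun a b c h1 h3 h4 => by
    have := card_symmDiff_add (φ a b) (φ a c)
    rw [hd a b c h1 h3 h4, h2 _ _ h4, h2 _ _ h1.symm, h2 _ _ h3.symm] at this
    omega
  have star : ∀ a, ∃ x, ∀ b, b ≠ a → x ∈ φ a b := fun a => by
    obtain ⟨c, hc, -⟩ := exists_third a a
    obtain ⟨d, hd1, hd2⟩ := exists_third a c
    obtain ⟨x, hx⟩ := Finset.card_eq_one.1 (one a c d hc hd1 hd2.symm)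
    have hx' := Finset.mem_inter.1 (hx ▸ Finset.mem_singleton_self x)
    refine ⟨x, fun b hb => by_contra fun hn => ?_⟩
    have h1 : b ≠ c := fun e => hn (e ▸ hx'.1)
    have h3 : b ≠ d := fun e => hn (e ▸ hx'.2)
    obtain ⟨y, hy⟩ := Finset.card_eq_one.1 (one a b c hb hc h1)
    obtain ⟨w, hw⟩ := Finset.card_eq_one.1 (one a b d hb hd1 h3)
    have hy' := Finset.mem_inter.1 (hy ▸ Finset.mem_singleton_self y)
    have hw' := Finset.mem_inter.1 (hw ▸ Finset.mem_singleton_self w)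
    have y1 : y ∉ φ a d := fun h => hn (Finset.mem_singleton.1 (hx ▸ Finset.mem_inter.2 ⟨hy'.2, h⟩) ▸ hy'.1)
    have w1 : w ∉ φ a c := fun h => hn (Finset.mem_singleton.1 (hx ▸ Finset.mem_inter.2 ⟨h, hw'.2⟩) ▸ hw'.1)
    have yw : y ≠ w := fun e => y1 (e ▸ hw'.2)
    have k : ∀ {s : Finset GolayPt}, s.card = 2 → y ∈ s → w ∈ s → {y, w} = s := fun h4 h5 h6 =>
      Finset.eq_of_subset_of_card_le (by simp [Finset.insert_subset_iff, h5, h6]) (by rw [h4, Finset.card_pair yw])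
    refine hi a b c d hb hc hd1 hd2.symm ((k (h2 _ _ hb.symm) hy'.1 hw'.1).symm.trans (k (h2 _ _ hd2.symm) ?_ ?_)) <;>
      rw [← hd a c d hc hd1 hd2.symm, Finset.mem_symmDiff]
    exacts [.inl ⟨hy'.2, y1⟩, .inr ⟨hw'.2, w1⟩]
  choose π hπ using star
  have inj : ∀ a b, a ≠ b → π a ≠ π b := fun a b hab e => by
    obtain ⟨c, h1, h3⟩ := exists_third a b
    have := hπ a b hab.symm
    rw [← hd c a b h1.symm h3.symm hab, Finset.mem_symmDiff, hs c a, hs c b] at this
    exact this.elim (fun h => h.2 (e ▸ hπ b c h3)) fun h => h.2 (hπ a c h1)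
  have inj' : Function.Injective π := fun a b e => by_contra fun h => inj a b h e
  exact ⟨Equiv.ofBijective π inj'.bijective_of_finite, fun a b hab => (Finset.eq_of_subset_of_card_le
    (by simp [Finset.insert_subset_iff, hπ a b hab.symm, hs a b ▸ hπ b a hab])
    (by rw [h2 _ _ hab]; exact (Finset.card_pair (inj a b hab)).ge)).symm⟩

/-- `V` is the even cocode: `ν` maps the even sets onto `V` with kernel the Golay code. -/
structure Todd (V : Subgroup G) (ν : Finset GolayPt → G) : Prop where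
  mul : ∀ s t, Even s.card → Even t.card → ν (symmDiff s t) = ν s * ν t
  ker : ∀ s, Even s.card → (ν s = 1 ↔ s ∈ CA.Gol.CW)
  mem : ∀ v, v ∈ V ↔ ∃ s, Even s.card ∧ ν s = v

/-- `m` acts on the Todd module as the permutation `g`. -/
def Acts (ν : Finset GolayPt → G) (m : G) (g : Equiv.Perm GolayPt) : Prop :=
  ∀ s, Even s.card → m * ν s * m⁻¹ = ν (g • s)

theorem Acts.mul {ν : Finset GolayPt → G} {m n : G} {g k : Equiv.Perm GolayPt} (h : Acts ν m g) (h' : Acts ν n k) :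
    Acts ν (m * n) (g * k) := fun s hs => by
  rw [mul_smul, ← h _ (by rwa [card_smul]), ← h' s hs]; group

theorem Acts.inv {ν : Finset GolayPt → G} {m : G} {g : Equiv.Perm GolayPt} (h : Acts ν m g) :
    Acts ν m⁻¹ g⁻¹ := fun s hs => by
  have := h (g⁻¹ • s) (by rwa [card_smul])
  rw [smul_inv_smul] at this
  rw [← this]; group

theorem acts_one (ν : Finset GolayPt → G) : Acts ν 1 1 := fun s hs => by simp

namespace Todd
variable {V : Subgroup G} {ν : Finset GolayPt → G} (h : Todd V ν) {s t : Finset GolayPt}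
include h

theorem empty : ν ∅ = 1 := (h.ker ∅ (by simp)).2 empty_mem_CW

theorem of_CW (hs : s ∈ CW) : ν s = 1 := (h.ker s (even_of_CW hs)).2 hs

theorem nu_mem (hs : Even s.card) : ν s ∈ V := (h.mem _).2 ⟨s, hs, rfl⟩

theorem sq (hs : Even s.card) : ν s * ν s = 1 := by rw [← h.mul s s hs hs, symmDiff_self]; exact h.empty

theorem comm (hs : Even s.card) (ht : Even t.card) : ν s * ν t = ν t * ν s := by
  rw [← h.mul s t hs ht, symmDiff_comm, h.mul t s ht hs]

theorem eq_iff (hs : Even s.card) (ht : Even t.card) : ν s = ν t ↔ symmDiff s t ∈ CW := by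
  rw [← h.ker _ (even_symmDiff hs ht), h.mul s t hs ht, mul_eq_one_iff_eq_inv,
    inv_eq_of_mul_eq_one_left (h.sq ht)]

theorem eq_of_small (hs : Even s.card) (ht : Even t.card) (hc : s.card + t.card < 8) (e : ν s = ν t) : s = t :=
  eq_of_symmDiff_small ((h.eq_iff hs ht).1 e) (by have := card_symmDiff_add s t; omega)

theorem pair_eq_iff {a b c d : GolayPt} (hab : a ≠ b) (hcd : c ≠ d) :
    ν {a, b} = ν {c, d} ↔ ({a, b} : Finset GolayPt) = {c, d} :=
  ⟨h.eq_of_small (even_pair hab) (even_pair hcd) (by rw [Finset.card_pair hab, Finset.card_pair hcd]; norm_num),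
    fun e => e ▸ rfl⟩

theorem ne_one (hs : Even s.card) (h0 : 0 < s.card) (h8 : s.card < 8) : ν s ≠ 1 := fun e => by
  have := card_CW ((h.ker s hs).1 e); omega

theorem mul_self {v : G} (hv : v ∈ V) : v * v = 1 := by
  obtain ⟨s, hs, rfl⟩ := (h.mem v).1 hv; exact h.sq hs

theorem comm' {v w : G} (hv : v ∈ V) (hw : w ∈ V) : v * w = w * v := by
  obtain ⟨s, hs, rfl⟩ := (h.mem v).1 hv
  obtain ⟨t, ht, rfl⟩ := (h.mem w).1 hw
  exact h.comm hs ht

theorem elem : IsElementaryAbelian 2 V :=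
  ⟨⟨⟨fun a b => Subtype.ext (h.comm' a.2 b.2)⟩⟩, fun a ha => by rw [pow_two, h.mul_self ha]⟩

theorem le_cent : V ≤ 𝐂(V) := fun v hv => mem_cent_iff.2 fun w hw => h.comm' hw hv

/-- every element is trivial, a duad or a tetrad -/
theorem small_rep {v : G} (hv : v ∈ V) : v = 1 ∨ (∃ s, s.card = 2 ∧ ν s = v) ∨ ∃ s, s.card = 4 ∧ ν s = v := by
  obtain ⟨s, hs, rfl⟩ := (h.mem v).1 hv
  obtain ⟨u, hu, e⟩ := exists_small_rep s
  have eu : Even u.card := by
    have := even_symmDiff hs (even_of_CW e)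
    rwa [symmDiff_symmDiff_cancel_left] at this
  rw [(h.eq_iff hs eu).2 e]
  rcases (by rw [Nat.even_iff] at eu; omega : u.card = 0 ∨ u.card = 2 ∨ u.card = 4) with e | e | e
  · left; rw [Finset.card_eq_zero.1 e, h.empty]
  exacts [.inr (.inl ⟨u, e, rfl⟩), .inr (.inr ⟨u, e, rfl⟩)]

theorem duad_ne_tetrad (hs : s.card = 2) (ht : t.card = 4) : ν s ≠ ν t := fun e => by
  have := h.eq_of_small (hs ▸ even_two) (ht ▸ by decide) (by omega) e
  subst this; omega

theorem ncard_duads : {v | ∃ s, s.card = 2 ∧ ν s = v}.ncard = 276 := by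
  have : {v | ∃ s, s.card = 2 ∧ ν s = v} = ν '' ↑(Finset.powersetCard 2 (Finset.univ : Finset GolayPt)) := by
    ext v; simp
  rw [this, Set.InjOn.ncard_image fun s hs t ht => ?_, Set.ncard_coe_finset, Finset.card_powersetCard,
    Finset.card_univ, card_golayPt]
  · rfl
  · simp only [Finset.mem_coe, Finset.mem_powersetCard_univ] at hs ht
    exact h.eq_of_small (hs ▸ even_two) (ht ▸ even_two) (by omega)

theorem ncard_tetrads : {v | ∃ s, s.card = 4 ∧ ν s = v}.ncard = 1771 := by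
  classical
  set P := Finset.powersetCard 4 (Finset.univ : Finset GolayPt) with hP
  have mP : ∀ s, s ∈ P ↔ s.card = 4 := fun s => by simp [hP]
  have : {v | ∃ s, s.card = 4 ∧ ν s = v} = ↑(P.image ν) := by ext v; simp [mP]
  have e4 : ∀ {s : Finset GolayPt}, s.card = 4 → Even s.card := fun e => e ▸ by decide
  have k := Finset.card_eq_sum_card_image ν P
  rw [Finset.sum_congr rfl (g := fun _ => 6) fun v hv => ?_, Finset.sum_const, hP, Finset.card_powersetCard,
    Finset.card_univ, card_golayPt, ← hP, show Nat.choose 24 4 = 10626 by rfl, smul_eq_mul] at k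
  · rw [this, Set.ncard_coe_finset]; omega
  · obtain ⟨t, ht, rfl⟩ := Finset.mem_image.1 hv
    obtain ⟨S, hS, tS⟩ := exists_sextet ((mP t).1 ht)
    refine le_antisymm (card_le_six_of_tetrads (fun u hu => (mP u).1 (Finset.mem_filter.1 hu).1) fun u hu w hw => ?_)
      (hS.1 ▸ Finset.card_le_card fun u hu => Finset.mem_filter.2 ⟨(mP u).2 (hS.2.1 u hu),
        (h.eq_iff (e4 (hS.2.1 u hu)) (e4 (hS.2.1 t tS))).2 (sextet_symmDiff hS hu tS)⟩)
    rw [Finset.mem_filter, mP] at hu hw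
    exact (h.eq_iff (e4 hu.1) (e4 hw.1)).1 (hu.2.trans hw.2.symm)

theorem card : Nat.card V = 2 ^ 11 := by
  have f : ∀ n, {v | ∃ s, s.card = n ∧ ν s = v}.Finite := fun n =>
    (Set.finite_range ν).subset fun v ⟨s, _, e⟩ => ⟨s, e⟩
  have : (V : Set G) = {1} ∪ ({v | ∃ s, s.card = 2 ∧ ν s = v} ∪ {v | ∃ s, s.card = 4 ∧ ν s = v}) := by
    ext v
    refine ⟨fun hv => h.small_rep hv, ?_⟩
    rintro (rfl | ⟨s, hs, rfl⟩ | ⟨s, hs, rfl⟩)
    exacts [one_mem _, h.nu_mem (hs ▸ even_two), h.nu_mem (hs ▸ by decide)]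
  rw [← SetLike.coe_sort_coe, Nat.card_coe_set_eq, this, Set.ncard_union_eq _ (Set.finite_singleton _)
    ((f 2).union (f 4)), Set.ncard_union_eq _ (f 2) (f 4), h.ncard_duads, h.ncard_tetrads, Set.ncard_singleton]
  · rfl
  · exact Set.disjoint_left.2 fun v ⟨s, hs, e⟩ ⟨t, ht, e'⟩ => h.duad_ne_tetrad hs ht (e.trans e'.symm)
  · rw [Set.disjoint_singleton_left]
    rintro (⟨s, hs, e⟩ | ⟨s, hs, e⟩)
    exacts [h.ne_one (hs ▸ even_two) (by omega) (by omega) e, h.ne_one (hs ▸ by decide) (by omega) (by omega) e]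

theorem finite : Finite V := Nat.finite_of_card_ne_zero (by rw [h.card]; norm_num)

theorem acts_of_pairs {m : G} {g : Equiv.Perm GolayPt} (H : ∀ a b, a ≠ b → m * ν {a, b} * m⁻¹ = ν {g a, g b}) :
    Acts ν m g := fun s hs =>
  even_induction (P := fun s => m * ν s * m⁻¹ = ν (g • s)) (by simp [h.empty]) (fun s a b hs hab ih => by
    rw [smul_symmDiff, h.mul _ _ hs (even_pair hab), h.mul _ _ (by rwa [card_smul])
      (by rw [card_smul]; exact even_pair hab), ← ih, smul_pair, ← H a b hab, conj_mul]) hs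

theorem acts_mem_M24 {m : G} {g : Equiv.Perm GolayPt} (H : Acts ν m g) : g ∈ M24 := mem_M24_of fun s hs =>
  (h.ker _ (by rw [card_smul]; exact even_of_CW hs)).1 (by rw [← H s (even_of_CW hs), h.of_CW hs]; simp)

theorem acts_unique {m : G} {g k : Equiv.Perm GolayPt} (H : Acts ν m g) (H' : Acts ν m k) : g = k := by
  have p : ∀ a b, a ≠ b → g a = k a ∨ g a = k b := fun a b hab => by
    have := (H _ (even_pair hab)).symm.trans (H' _ (even_pair hab))
    rw [smul_pair, smul_pair, h.pair_eq_iff (g.injective.ne hab) (k.injective.ne hab)] at this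
    simpa using (this ▸ Finset.mem_insert_self _ _ : g a ∈ ({k a, k b} : Finset GolayPt))
  ext a
  obtain ⟨b, hb, -⟩ := exists_third a a
  obtain ⟨c, hc, hc'⟩ := exists_third a b
  rcases p a b hb.symm with e | e
  · rw [e]
  rcases p a c hc.symm with e' | e'
  · rw [e']
  exact absurd (k.injective (e'.symm.trans e)) hc'

theorem acts_one_iff {m : G} : Acts ν m 1 ↔ m ∈ 𝐂(V) := by
  rw [mem_cent_iff]
  refine ⟨fun H v hv => ?_, fun H s hs => by rw [one_smul, ← H _ (h.nu_mem hs), mul_inv_cancel_right]⟩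
  obtain ⟨s, hs, rfl⟩ := (h.mem v).1 hv
  have := H s hs
  rw [one_smul, mul_inv_eq_iff_eq_mul] at this
  exact this.symm

theorem acts_eq_one_iff {m : G} {g : Equiv.Perm GolayPt} (H : Acts ν m g) : g = 1 ↔ m ∈ 𝐂(V) :=
  ⟨fun e => h.acts_one_iff.1 (e ▸ H), fun e => h.acts_unique H (h.acts_one_iff.2 e)⟩

theorem acts_norm {m : G} {g : Equiv.Perm GolayPt} (H : Acts ν m g) : m ∈ 𝐍(V) := by
  have k : ∀ {m g}, Acts ν m g → ∀ v ∈ V, m * v * m⁻¹ ∈ V := fun H v hv => by
    obtain ⟨s, hs, rfl⟩ := (h.mem v).1 hv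
    rw [H s hs]; exact h.nu_mem (by rwa [card_smul])
  exact mem_normalizer_iff.2 fun v => ⟨k H v, fun hv => by simpa [mul_assoc] using k H.inv _ hv⟩

/-- An element permuting the duads acts as a permutation of the points. -/
theorem exists_acts {m : G} (hD : ∀ a b, a ≠ b → ∃ c d, c ≠ d ∧ m * ν {a, b} * m⁻¹ = ν {c, d}) :
    ∃ g, Acts ν m g := by
  have : ∀ s : Finset GolayPt, ∃ t : Finset GolayPt, s.card = 2 → t.card = 2 ∧ m * ν s * m⁻¹ = ν t := fun s => by
    by_cases hs : s.card = 2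
    · obtain ⟨a, b, hab, rfl⟩ := Finset.card_eq_two.1 hs
      obtain ⟨c, d, hcd, e⟩ := hD a b hab
      exact ⟨_, fun _ => ⟨Finset.card_pair hcd, e⟩⟩
    · exact ⟨s, fun h => absurd h hs⟩
  choose ψ hψ using this
  have p : ∀ {a b : GolayPt}, a ≠ b → (ψ {a, b}).card = 2 ∧ m * ν {a, b} * m⁻¹ = ν (ψ {a, b}) := fun hab =>
    hψ _ (Finset.card_pair hab)
  have ev : ∀ {a b : GolayPt}, a ≠ b → Even (ψ {a, b}).card := fun hab => (p hab).1 ▸ even_two
  obtain ⟨π, hπ⟩ := whitney (φ := fun a b => ψ {a, b}) (fun a b hab => (p hab).1)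
    (fun a b => by rw [Finset.pair_comm]) (fun a b c hb hc hbc => by
      refine h.eq_of_small (even_symmDiff (ev hb.symm) (ev hc.symm)) (ev hbc) ?_ ?_
      · have := card_symmDiff_add (ψ {a, b}) (ψ {a, c})
        rw [(p hb.symm).1, (p hc.symm).1] at this
        rw [(p hbc).1]; omega
      · rw [h.mul _ _ (ev hb.symm) (ev hc.symm), ← (p hb.symm).2, ← (p hc.symm).2, ← (p hbc).2, conj_mul,
          ← h.mul _ _ (even_pair hb.symm) (even_pair hc.symm), pair_symmDiff hb hc hbc])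
    (fun a b c d hb hc hd hcd e => by
      have := (p hb.symm).2.trans ((congrArg ν e).trans (p hcd).2.symm)
      rw [mul_left_inj, mul_right_inj, h.pair_eq_iff hb.symm hcd] at this
      have : a ∈ ({c, d} : Finset GolayPt) := this ▸ Finset.mem_insert_self _ _
      simp [hc.symm, hd.symm] at this)
  exact ⟨π, h.acts_of_pairs fun a b hab => by rw [(p hab).2, hπ a b hab]⟩

theorem exists_mu' {M : Subgroup G} (hD : ∀ m ∈ M, ∃ g, Acts ν m g) :
    ∃ μ : M →* Equiv.Perm GolayPt, (∀ m, μ m ∈ M24) ∧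
      (∀ (m : M) s, Even s.card → (m : G) * ν s * (m : G)⁻¹ = ν (μ m • s)) ∧ ∀ m, μ m = 1 ↔ (m : G) ∈ 𝐂(V) := by
  choose f hf using hD
  exact ⟨MonoidHom.mk' (fun m => f m m.2) fun a b => h.acts_unique (hf _ _) ((hf _ _).mul (hf _ _)),
    fun m => h.acts_mem_M24 (hf _ _), fun m => hf _ _, fun m => h.acts_eq_one_iff (hf _ _)⟩

theorem exists_mu {M : Subgroup G}
    (hD : ∀ m ∈ M, m ∈ 𝐍(V) ∧ ∀ a b, a ≠ b → ∃ c d, c ≠ d ∧ m * ν {a, b} * m⁻¹ = ν {c, d}) :
    ∃ μ : M →* Equiv.Perm GolayPt, (∀ m, μ m ∈ M24) ∧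
      (∀ (m : M) s, Even s.card → (m : G) * ν s * (m : G)⁻¹ = ν (μ m • s)) ∧ ∀ m, μ m = 1 ↔ (m : G) ∈ 𝐂(V) :=
  h.exists_mu' fun m hm => h.exists_acts (hD m hm).2

section onto
variable {M : Subgroup G} (h1 : ∀ m ∈ M, ∃ g, Acts ν m g) (h2 : ∀ g ∈ M24, ∃ m ∈ M, Acts ν m g)
include h1 h2

theorem orbit_eq (hs : Even s.card) (h5 : s.card ≤ 5) :
    {v | ∃ n ∈ M, n * ν s * n⁻¹ = v} = {v | ∃ t, t.card = s.card ∧ ν t = v} := by
  ext v
  constructor
  · rintro ⟨n, hn, rfl⟩
    obtain ⟨g, hg⟩ := h1 n hn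
    exact ⟨_, card_smul g s, (hg s hs).symm⟩
  · rintro ⟨t, ht, rfl⟩
    obtain ⟨g, hg, rfl⟩ := exists_smul_eq h5 ht.symm
    obtain ⟨m, hm, H⟩ := h2 g hg
    exact ⟨m, hm, H s hs⟩

theorem ncard_orbit_duad (hs : s.card = 2) : {v | ∃ n ∈ M, n * ν s * n⁻¹ = v}.ncard = 276 := by
  rw [h.orbit_eq h1 h2 (hs ▸ even_two) (by omega), hs, h.ncard_duads]

theorem ncard_orbit_tetrad (hs : s.card = 4) : {v | ∃ n ∈ M, n * ν s * n⁻¹ = v}.ncard = 1771 := by
  rw [h.orbit_eq h1 h2 (hs ▸ by decide) (by omega), hs, h.ncard_tetrads]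

omit h1 in
theorem irred {W : Subgroup G} (hW : W ≤ V) (hn : M ≤ 𝐍(W)) : W = ⊥ ∨ W = V := by
  refine or_iff_not_imp_left.2 fun h0 => le_antisymm hW fun v hv => ?_
  obtain ⟨⟨w, hw⟩, w1⟩ := ne_bot_iff_exists_ne_one.1 h0
  obtain ⟨t, ht, rfl⟩ := (h.mem w).1 (hW hw)
  obtain ⟨s, hs, rfl⟩ := (h.mem v).1 hv
  have : InvFam fun s => Even s.card ∧ ν s ∈ W := ⟨⟨by simp, h.empty ▸ one_mem _⟩, fun s t a b =>
    ⟨even_symmDiff a.1 b.1, h.mul s t a.1 b.1 ▸ mul_mem a.2 b.2⟩, fun g hg s a => by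
      obtain ⟨m, hm, H⟩ := h2 g hg
      exact ⟨by rw [card_smul]; exact a.1, H s a.1 ▸ conj_mem_of_mem_normalizer (hn hm) a.2⟩⟩
  exact (this.of_not_code (fun e => w1 (Subtype.ext (h.of_CW e))) ⟨ht, hw⟩ hs).2

end onto

end Todd

end CA.XS
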