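/-
Gaschütz's splitting theorem.
-/
import Cfsg.Agent.Lib.G.Basic

set_option autoImplicit false
set_option linter.unusedSectionVars false
set_option linter.style.haveILetI false
set_option linter.unusedVariables false

namespace CA.XS

open Cfsg Subgroup CA
open scoped IsMulCommutative

variable {G : Type*} [Group G]

theorem gaschutz_abs [Finite G] {A Y B : Subgroup G} [A.Normal] [IsMulCommutative A] (hAY : A ≤ Y)
    (hc : (Nat.card A).Coprime Y.index) (hB : B ≤ Y) (h1 : B ⊓ A = ⊥) (h2 : B ⊔ A = Y) :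
    ∃ K : Subgroup G, K ⊓ A = ⊥ ∧ K ⊔ A = ⊤ := by
  classical
  have hA : A.Normal := inferInstance
  haveI := Fintype.ofFinite (G ⧸ Y)
  have ex : ∀ g : G, ∃ a : A, ∃ b ∈ B, g = a * (g : G ⧸ Y).out * b := fun g => by
    have : (g : G ⧸ Y).out⁻¹ * g ∈ A ⊔ B := by
      rw [sup_comm, h2]; exact QuotientGroup.eq.1 (QuotientGroup.out_eq' _)
    obtain ⟨a, ha, b, hb, e⟩ := mem_sup_of_normal_left.1 this
    exact ⟨⟨_, hA.conj_mem a ha (g : G ⧸ Y).out⟩, b, hb, by
      rw [inv_mul_cancel_right, mul_assoc, e, mul_inv_cancel_left]⟩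
  choose φ β hβ hφ using ex
  have un : ∀ {g : G} {a : A} {b : G}, b ∈ B → g = a * (g : G ⧸ Y).out * b → φ g = a := fun {g a b} hb e => by
    have e' := hφ g
    generalize (g : G ⧸ Y).out = t at e e'
    have : t⁻¹ * (a⁻¹ * φ g : A) * t ∈ B ⊓ A := ⟨by
      have : t⁻¹ * (a⁻¹ * φ g : A) * t = b * (β g)⁻¹ := by
        rw [eq_mul_inv_iff_mul_eq, coe_mul, coe_inv]
        simp only [mul_assoc] at e e' ⊢
        rw [← e', inv_mul_eq_iff_eq_mul, inv_mul_eq_iff_eq_mul, ← e]
      rw [this]; exact B.mul_mem hb (B.inv_mem (hβ g)), hA.conj_mem' _ (a⁻¹ * φ g).2 t⟩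
    rw [h1, mem_bot, mul_assoc, inv_mul_eq_one, eq_comm, mul_eq_right, OneMemClass.coe_eq_one,
      inv_mul_eq_one] at this
    exact this.symm
  have l : ∀ (a : A) (g : G), φ (a * g) = a * φ g := fun a g => un (hβ g) (by
    have : ((a * g : G) : G ⧸ Y) = g := QuotientGroup.eq.2 (hAY (by
      rw [mul_inv_rev]; exact hA.conj_mem' _ (inv_mem a.2) g))
    rw [this, coe_mul, mul_assoc, mul_assoc, ← mul_assoc (φ g : G), ← hφ g])
  have r : ∀ (g : G) {b : G}, b ∈ B → φ (g * b) = φ g := fun g b hb => un (mul_mem (hβ g) hb) (by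
    have : ((g * b : G) : G ⧸ Y) = g := QuotientGroup.mk_mul_of_mem g (hB hb)
    rw [this, ← mul_assoc, ← hφ g])
  let κ : G →* MulAut A := MulAut.conjNormal
  let d : G → G → A := fun h g => κ h (φ (h⁻¹ * g)) * (φ g)⁻¹
  have dy : ∀ (h g : G) {y : G}, y ∈ Y → d h (g * y) = d h g := fun h g y hy => by
    rw [← h2, sup_comm] at hy
    obtain ⟨a, ha, b, hb, rfl⟩ := mem_sup_of_normal_left.1 hy
    have e1 : g * (a * b) = (κ g ⟨a, ha⟩ : A) * g * b := by simp [κ, mul_assoc]
    have e2 : h⁻¹ * (g * (a * b)) = (κ (h⁻¹ * g) ⟨a, ha⟩ : A) * (h⁻¹ * g) * b := by simp [κ, mul_assoc]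
    simp only [d]
    rw [e2, e1, r _ hb, r _ hb, l, l, map_mul, ← MulAut.mul_apply, ← map_mul, mul_inv_cancel_left,
      mul_inv_rev, mul_comm (κ g _), mul_assoc, mul_comm (φ g)⁻¹, mul_inv_cancel_left]
  let c : G → A := fun h => ∏ q : G ⧸ Y, d h q.out
  have cm : ∀ h h', c (h * h') = κ h (c h') * c h := fun h h' => by
    have : c h' = ∏ q : G ⧸ Y, d h' (h⁻¹ * q.out) := by
      refine (Fintype.prod_equiv (MulAction.toPerm h⁻¹) _ _ fun q => ?_).symm
      obtain ⟨y, hy⟩ := QuotientGroup.mk_out_eq_mul Y (h⁻¹ * q.out)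
      rw [← dy _ _ y.2, ← hy, MulAction.toPerm_apply, ← smul_eq_mul, MulAction.Quotient.mk_smul_out]
    rw [this, map_prod, ← Finset.prod_mul_distrib]
    refine Finset.prod_congr rfl fun q _ => ?_
    simp only [d, map_mul, MulAut.mul_apply, mul_inv_rev, map_inv, mul_assoc, inv_mul_cancel_left]
  have κa : ∀ a x : A, κ a x = x := fun a x => Subtype.ext (by
    simp only [κ, MulAut.conjNormal_apply]
    rw [← coe_mul, mul_comm a x, coe_mul, mul_inv_cancel_right])
  have ca : ∀ a : A, c a = a⁻¹ ^ Y.index := fun a => by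
    have : ∀ q : G ⧸ Y, d a q.out = a⁻¹ := fun q => by
      simp only [d]
      rw [κa, ← coe_inv, l, mul_inv_cancel_right]
    simp only [c, this, Finset.prod_const, Finset.card_univ, index, Nat.card_eq_fintype_card]
  have c1 : c 1 = 1 := by simpa using ca 1
  let K : Subgroup G :=
    { carrier := {h | c h = 1}
      one_mem' := c1
      mul_mem' := fun {a b} ha hb => by
        change c _ = 1
        rw [cm, show c a = 1 from ha, show c b = 1 from hb, map_one, one_mul]
      inv_mem' := fun {a} ha => by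
        have := cm a⁻¹ a
        rw [inv_mul_cancel, c1, show c a = 1 from ha, map_one, one_mul] at this
        exact this.symm }
  refine ⟨K, eq_bot_iff.2 fun a ha => ?_, eq_top_iff.2 fun h _ => ?_⟩
  · have := (ca ⟨a, ha.2⟩).symm.trans ha.1
    rw [← one_pow Y.index] at this
    have := (powCoprime hc).injective this
    rw [inv_eq_one] at this
    exact congrArg Subtype.val this
  · obtain ⟨a, ha⟩ := (powCoprime hc).surjective (c h)
    have : (a : G) * h ∈ K := by
      change c _ = 1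
      rw [cm, κa, ca, ← ha, inv_pow]
      exact mul_inv_cancel _
    rw [← inv_mul_cancel_left (a : G) h]
    exact mul_mem (mem_sup_right (inv_mem a.2)) (mem_sup_left this)

/-- **Gaschütz's theorem**. -/
theorem gaschutz [Finite G] {A Y N B : Subgroup G} (hA : IsMulCommutative A) (hAY : A ≤ Y) (hYN : Y ≤ N)
    (hN : N ≤ 𝐍(A)) (hc : (Nat.card A).Coprime (Y.relIndex N)) (hB : B ≤ Y) (h1 : B ⊓ A = ⊥)
    (h2 : B ⊔ A = Y) : ∃ K ≤ N, K ⊓ A = ⊥ ∧ K ⊔ A = N := by
  have hAN := hAY.trans hYN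
  haveI : (A.subgroupOf N).Normal := (normal_subgroupOf_iff_le_normalizer hAN).2 hN
  obtain ⟨K, k1, k2⟩ := gaschutz_abs (A := A.subgroupOf N) (Y := Y.subgroupOf N) (B := B.subgroupOf N)
    (fun x hx => hAY hx) (by rwa [Nat.card_congr (subgroupOfEquivOfLe hAN).toEquiv]) (fun x hx => hB hx)
    (by rw [subgroupOf, subgroupOf, ← comap_inf, h1]; exact bot_subgroupOf N) (by rw [← h2, subgroupOf_sup (hB.trans hYN) hAN])
  refine ⟨K.map N.subtype, map_subtype_le K, ?_, ?_⟩
  · rw [← map_subgroupOf_eq_of_le hAN, ← map_inf _ _ _ N.subtype_injective, k1, Subgroup.map_bot]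
  · rw [← map_subgroupOf_eq_of_le hAN, ← Subgroup.map_sup, k2, ← MonoidHom.range_eq_map, range_subtype]

end CA.XS
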