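/-
The exterior square of the natural `L₅(2)`-module inside a group.
-/
import Cfsg.Agent.Lib.G.Basic
import Cfsg.Agent.Lib.Classical.Linear

set_option autoImplicit false
set_option linter.unusedSectionVars false
set_option linter.style.haveILetI false
set_option linter.unusedVariables false

namespace CA.XS

open Cfsg Subgroup CA Matrix
open scoped IsMulCommutative

abbrev V5 : Type := Fin 5 → ZMod 2
abbrev L5 : Type := SpecialLinearGroup (Fin 5) (ZMod 2)

theorem card_L5 : Nat.card L5 = 9999360 := by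
  have := Lin.card_SL_mul (F := ZMod 2) 5 (by norm_num)
  rw [ZMod.card, show ∏ i : Fin 5, (2 ^ 5 - 2 ^ (i : ℕ)) = 9999360 by decide, show 2 - 1 = 1 from rfl,
    one_mul] at this
  exact this

theorem L5_mul (g k : L5) (x : V5) : (g * k).1 *ᵥ x = g.1 *ᵥ (k.1 *ᵥ x) := (mulVec_mulVec _ _ _).symm

theorem L5_one (x : V5) : (1 : L5).1 *ᵥ x = x := one_mulVec x

theorem z2 (a : ZMod 2) : a = 0 ∨ a = 1 := by revert a; decide

theorem v5_add_self (x : V5) : x + x = 0 := CharTwo.add_self_eq_zero x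

theorem v5_add_eq_zero {x y : V5} : x + y = 0 ↔ x = y := CharTwo.add_eq_zero

/-- the `i`-th basis vector -/
def e5 (i : Fin 5) : V5 := Pi.single i 1

theorem e5_ne (i : Fin 5) : e5 i ≠ 0 := fun h => by simpa [e5] using congrFun h i

theorem v5_induction {P : V5 → Prop} (h0 : P 0) (ha : ∀ x y, P x → P y → P (x + y)) (he : ∀ i, P (e5 i)) (x : V5) :
    P x := by
  rw [← Finset.univ_sum_single x]
  refine Finset.sum_induction _ P ha h0 fun i _ => ?_
  rcases z2 (x i) with e | e <;> rw [e]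
  exacts [by rwa [Pi.single_zero], he i]

theorem exists_out (a b c d : V5) : ∃ y, ∀ α β γ δ : ZMod 2, y ≠ α • a + β • b + γ • c + δ • d := by
  by_contra hn
  push Not at hn
  have := Fintype.card_le_of_surjective (fun p : ZMod 2 × ZMod 2 × ZMod 2 × ZMod 2 =>
    p.1 • a + p.2.1 • b + p.2.2.1 • c + p.2.2.2 • d) fun y => by
    obtain ⟨α, β, γ, δ, e⟩ := hn y
    exact ⟨(α, β, γ, δ), e.symm⟩
  simp at this

theorem exists_out' (a b : V5) : ∃ y, y ≠ 0 ∧ y ≠ a ∧ y ≠ b ∧ y ≠ a + b := by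
  obtain ⟨y, h⟩ := exists_out a b 0 0
  exact ⟨y, by simpa using h 0 0 0 0, by simpa using h 1 0 0 0, by simpa using h 0 1 0 0, by simpa using h 1 1 0 0⟩

/-- independent vectors are the images of the basis vectors under `L₅(2)` -/
theorem exists_L5 {n : ℕ} (hn : n ≤ 5) {v : Fin n → V5} (hv : LinearIndependent (ZMod 2) v) :
    ∃ g : L5, ∀ i, g.1 *ᵥ e5 (Fin.castLE hn i) = v i := by
  induction hn using Nat.decreasingInduction with
  | self =>
    have : IsUnit (Matrix.of fun i j => v j i) := linearIndependent_cols_iff_isUnit.1 hv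
    exact ⟨⟨_, (z2 _).resolve_left ((isUnit_iff_isUnit_det _).1 this).ne_zero⟩, fun i => mulVec_single_one _ _⟩
  | of_succ k hk ih =>
    obtain ⟨x, hx⟩ := exists_linearIndependent_snoc_of_lt_finrank hv (by simpa using hk)
    obtain ⟨g, hg⟩ := ih hx
    exact ⟨g, fun i => by simpa using hg i.castSucc⟩

/-- Plücker coordinates of `x ∧ y` -/
def Wg (x y : V5) : Fin 5 → Fin 5 → ZMod 2 := fun i j => x i * y j - x j * y i

/-- `u` is in the span of `x` and `y` -/
def Sp (x y u : V5) : Prop := ∃ α β : ZMod 2, u = α • x + β • y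

theorem Sp.cases {x y u : V5} (h : Sp x y u) : u = 0 ∨ u = x ∨ u = y ∨ u = x + y := by
  obtain ⟨α, β, rfl⟩ := h
  rcases z2 α with rfl | rfl <;> rcases z2 β with rfl | rfl <;> simp

theorem exists_one {M : Fin 5 → Fin 5 → ZMod 2} (h : M ≠ 0) : ∃ i j, M i j = 1 := by
  by_contra hn
  push Not at hn
  exact h (funext₂ fun i j => (z2 _).resolve_right (hn i j))

theorem Wg_eq_zero {x y : V5} (h : Wg x y = 0) : x = 0 ∨ y = 0 ∨ x = y := by
  refine or_iff_not_imp_left.2 fun hx => ?_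
  obtain ⟨i, hi⟩ := Function.ne_iff.1 hx
  replace hi := (z2 _).resolve_left hi
  have : ∀ j, y j = x j * y i := fun j => by
    have := congrFun₂ h i j
    simp only [Wg, hi, Pi.zero_apply] at this
    linear_combination this
  rcases z2 (y i) with e | e <;> simp only [e, mul_zero, mul_one] at this
  exacts [.inl (funext this), .inr (funext this).symm]

theorem sp_of_Wg_eq {x y u v : V5} (h : Wg x y = Wg u v) (h0 : Wg x y ≠ 0) : Sp x y u := by
  obtain ⟨i, j, e⟩ := exists_one h0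
  refine ⟨u i * y j - u j * y i, u j * x i - u i * x j, funext fun k => ?_⟩
  have h1 := congrFun₂ h i k
  have h2 := congrFun₂ h j k
  have h3 := congrFun₂ h i j
  simp only [Wg, Pi.add_apply, Pi.smul_apply, smul_eq_mul] at *
  linear_combination (-u j) * h1 + u i * h2 + u k * h3 - u k * e

theorem sp_of_add {x y u v a b : V5} (h : Wg x y + Wg u v = Wg a b) (h0 : Wg x y ≠ 0) :
    Sp x y u ∨ Sp x y v ∨ Sp x y (u + v) := by
  obtain ⟨i, j, e⟩ := exists_one h0
  have := Wg_eq_zero (x := u - u j • Wg x y i + u i • Wg x y j) (y := v - v j • Wg x y i + v i • Wg x y j)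
    (funext₂ fun k l => by
      have p : Wg a b i j * Wg a b k l - Wg a b i k * Wg a b j l + Wg a b i l * Wg a b j k = 0 := by
        simp only [Wg]; ring
      rw [← h] at p
      simp only [Wg, Pi.add_apply, Pi.sub_apply, Pi.smul_apply, smul_eq_mul, Pi.zero_apply] at p e ⊢
      linear_combination p - ((u k * v l - u l * v k) - (u i * v j - u j * v i) * (x k * y l - x l * y k)) * e)
  have k : ∀ {u : V5}, u - u j • Wg x y i + u i • Wg x y j = 0 → Sp x y u := fun {u} h =>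
    ⟨u i * y j - u j * y i, u j * x i - u i * x j, funext fun k => by
      have := congrFun h k
      simp only [Wg, Pi.add_apply, Pi.sub_apply, Pi.smul_apply, smul_eq_mul, Pi.zero_apply] at this ⊢
      linear_combination this⟩
  refine this.imp k (Or.imp k fun h => k ?_)
  rw [← v5_add_eq_zero] at h
  rw [← h, Pi.add_apply, Pi.add_apply, add_smul, add_smul]
  abel

/-- alternating matrices -/
def Alt5 (M : Fin 5 → Fin 5 → ZMod 2) : Prop := (∀ i, M i i = 0) ∧ ∀ i j, M j i = -M i j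

theorem alt_Wg (x y : V5) : Alt5 (Wg x y) := ⟨fun i => sub_self _, fun i j => (neg_sub _ _).symm⟩

theorem Alt5.sub {M N : Fin 5 → Fin 5 → ZMod 2} (h : Alt5 M) (h' : Alt5 N) : Alt5 (M - N) :=
  ⟨fun i => by simp [h.1, h'.1], fun i j => by simp only [Pi.sub_apply]; rw [h.2 i j, h'.2 i j]; ring⟩

theorem Alt5.rows {M : Fin 5 → Fin 5 → ZMod 2} (h : Alt5 M) {i j : Fin 5} (e : M i j = 1) (l : Fin 5) :
    (M - Wg (M i) (M j)) i l = 0 ∧ (M - Wg (M i) (M j)) j l = 0 := by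
  simp only [Wg, Pi.sub_apply, h.1, h.2 i j, e]
  constructor <;> ring

theorem Alt5.normal_form {M : Fin 5 → Fin 5 → ZMod 2} (h : Alt5 M) : (∃ x y, M = Wg x y) ∨
    ∃ x y u v, LinearIndependent (ZMod 2) ![x, y, u, v] ∧ M = Wg x y + Wg u v := by
  by_cases h0 : M = 0
  · exact .inl ⟨0, 0, h0.trans (funext₂ fun i j => by simp [Wg])⟩
  obtain ⟨i, j, e⟩ := exists_one h0
  have r := h.rows e
  have a := h.sub (alt_Wg (M i) (M j))
  by_cases h1 : M - Wg (M i) (M j) = 0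
  · exact .inl ⟨_, _, sub_eq_zero.1 h1⟩
  obtain ⟨k, l, e'⟩ := exists_one h1
  obtain ⟨N, hN⟩ : ∃ N, N = M - Wg (M i) (M j) := ⟨_, rfl⟩
  rw [← hN] at r a e'
  have r' := a.rows e'
  have a' := a.sub (alt_Wg (N k) (N l))
  have c : ∀ m, N m i = 0 ∧ N m j = 0 := fun m => ⟨by rw [a.2, (r m).1, neg_zero], by rw [a.2, (r m).2, neg_zero]⟩
  have z : ∀ m ∈ ({i, j, k, l} : Finset (Fin 5)), ∀ n, (N - Wg (N k) (N l)) m n = 0 := fun m hm n => by
    simp only [Finset.mem_insert, Finset.mem_singleton] at hm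
    rcases hm with rfl | rfl | rfl | rfl
    exacts [by simp [Wg, (r n).1, (c _).1], by simp [Wg, (r n).2, (c _).2], (r' n).1, (r' n).2]
  have d : ∀ {m n m' n' : Fin 5}, N m n = 0 → N m' n' = 1 → m = m' → n = n' → False := fun h1 h2 h3 h4 => by
    subst h3 h4; simp [h1] at h2
  have cov : ∀ i j k l m n : Fin 5, i ≠ j → k ≠ l → i ≠ k → j ≠ k → i ≠ l → j ≠ l → m ≠ n →
      m ∈ ({i, j, k, l} : Finset (Fin 5)) ∨ n ∈ ({i, j, k, l} : Finset (Fin 5)) := by
    intro i j k l m n a b c d e f g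
    by_contra hn
    have := Finset.card_le_univ ({m, n, i, j, k, l} : Finset (Fin 5))
    simp_all only [not_or, Finset.mem_insert, Finset.mem_singleton, ne_eq, not_false_eq_true, or_self,
      Finset.card_insert_of_notMem, Finset.card_singleton, Fintype.card_fin]
    omega
  refine .inr ⟨M i, M j, N k, N l, Fintype.linearIndependent_iff.2 fun g hg => ?_, ?_⟩
  · have h1 := congrFun hg i
    have h2 := congrFun hg j
    have h3 := congrFun hg k
    have h4 := congrFun hg l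
    simp [Fin.sum_univ_four, h.1, h.2 i j, e, c, a.1, a.2 k l, e'] at h1 h2 h3 h4
    simp only [h1, h2, zero_mul, zero_add, add_neg_cancel, neg_eq_zero] at h3 h4
    intro t; fin_cases t <;> assumption
  · rw [← sub_eq_iff_eq_add', ← hN, ← sub_eq_zero]
    funext m n
    by_cases hmn : m = n
    · exact hmn ▸ a'.1 m
    rcases cov i j k l m n (fun t => by subst t; simp [h.1] at e) (fun t => d (a.1 k) e' rfl t)
      (fun t => d (r l).1 e' t rfl) (fun t => d (r l).2 e' t rfl) (fun t => d (c k).1 e' rfl t)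
      (fun t => d (c k).2 e' rfl t) hmn with t | t
    exacts [z m t n, by rw [a'.2, z n t m, neg_zero]; rfl]

/-- `A` is the exterior square of `𝔽₂⁵`, with `w x y = x ∧ y`. -/
structure Wedge {G : Type*} [Group G] (A : Subgroup G) (w : V5 → V5 → G) : Prop where
  addl : ∀ x x' y, w (x + x') y = w x y * w x' y
  addr : ∀ x y y', w x (y + y') = w x y * w x y'
  alt : ∀ x, w x x = 1
  gen : A = closure {g | ∃ x y, w x y = g}
  card : Nat.card A = 2 ^ 10

variable {G : Type*} [Group G]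

/-- `a` lies in the star `p ∧ V` -/
def On (w : V5 → V5 → G) (p : V5) (a : G) : Prop := ∃ q, a = w p q

/-- `n` acts on the wedge module as `g` -/
def ActsW (w : V5 → V5 → G) (n : G) (g : L5) : Prop := ∀ x y, n * w x y * n⁻¹ = w (g.1 *ᵥ x) (g.1 *ᵥ y)

theorem ActsW.mul {w : V5 → V5 → G} {m n : G} {g k : L5} (h : ActsW w m g) (h' : ActsW w n k) :
    ActsW w (m * n) (g * k) := fun x y => by
  rw [L5_mul, L5_mul, ← h, ← h']; group

theorem actsW_one (w : V5 → V5 → G) : ActsW w 1 1 := fun x y => by simp [L5_one]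

theorem ActsW.inv {w : V5 → V5 → G} {m : G} {g : L5} (h : ActsW w m g) : ActsW w m⁻¹ g⁻¹ := fun x y => by
  have := h (g⁻¹.1 *ᵥ x) (g⁻¹.1 *ᵥ y)
  rw [← L5_mul, ← L5_mul, mul_inv_cancel, L5_one, L5_one] at this
  rw [← this]; group

namespace Wedge
variable {A : Subgroup G} {w : V5 → V5 → G} (h : Wedge A w)
include h

theorem zero_left (y : V5) : w 0 y = 1 := by simpa using h.addl 0 0 y

theorem zero_right (x : V5) : w x 0 = 1 := by simpa using h.addr x 0 0

theorem sq (x y : V5) : w x y * w x y = 1 := by rw [← h.addl, v5_add_self, h.zero_left]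

theorem symm (x y : V5) : w x y = w y x := by
  have := h.alt (x + y)
  rw [h.addl, h.addr, h.addr, h.alt, h.alt, one_mul, mul_one, mul_eq_one_iff_eq_inv] at this
  rw [this, inv_eq_of_mul_eq_one_left (h.sq _ _)]

theorem comm (x y u v : V5) : w x y * w u v = w u v * w x y := by
  have := h.addl x u (v + y)
  rw [h.addr (x + u), h.addl, h.addl, h.addr, h.addr, mul_assoc, mul_assoc, mul_right_inj, ← mul_assoc,
    ← mul_assoc, mul_left_inj] at this
  exact this.symm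

theorem w_mem (x y : V5) : w x y ∈ A := h.gen ▸ subset_closure ⟨x, y, rfl⟩

theorem le_of {K : Subgroup G} (H : ∀ x y, w x y ∈ K) : A ≤ K :=
  h.gen ▸ (closure_le _).2 (by rintro _ ⟨x, y, rfl⟩; exact H x y)

theorem le_cent : A ≤ 𝐂(A) :=
  h.le_of fun x y => mem_cent_iff.2 fun a ha => (mem_cent1_iff.1 (h.le_of (K := 𝐂[w x y])
    (fun u v => mem_cent1_iff.2 (h.comm _ _ _ _)) ha))

theorem finite : Finite A := Nat.finite_of_card_ne_zero (by rw [h.card]; norm_num)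

theorem isMulCommutative : IsMulCommutative A :=
  ⟨⟨fun a b => Subtype.ext (mem_cent_iff.1 (h.le_cent b.2) a a.2)⟩⟩

theorem exists_psi : ∃ ψ : (Fin 5 → Fin 5 → ZMod 2) → G, (∀ M N, ψ (M + N) = ψ M * ψ N) ∧
    (∀ x y, ψ (Wg x y) = w x y) ∧ (∀ M N, Alt5 M → Alt5 N → ψ M = ψ N → M = N) ∧
    ∀ a ∈ A, ∃ M, Alt5 M ∧ ψ M = a := by
  haveI := h.isMulCommutative
  haveI := h.finite
  let P := {k : Fin 5 × Fin 5 // k.1 < k.2}
  let w' : V5 → V5 → A := fun x y => ⟨w x y, h.w_mem x y⟩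
  have al : ∀ x x' y, w' (x + x') y = w' x y * w' x' y := fun _ _ _ => Subtype.ext (h.addl _ _ _)
  have ar : ∀ x y y', w' x (y + y') = w' x y * w' x y' := fun _ _ _ => Subtype.ext (h.addr _ _ _)
  have zr : ∀ x, w' x 0 = 1 := fun _ => Subtype.ext (h.zero_right _)
  let φ : Multiplicative (P → ZMod 2) →* A := MonoidHom.mk'
    (fun c => ∏ k : P, w' (e5 k.1.1) (c.toAdd k • e5 k.1.2)) fun a b => by
      simp only [toAdd_mul, Pi.add_apply, add_smul, ar, Finset.prod_mul_distrib]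
  let ψ : (Fin 5 → Fin 5 → ZMod 2) → A := fun M => φ (.ofAdd fun k => M k.1.1 k.1.2)
  have h1 : ∀ M N, ψ (M + N) = ψ M * ψ N := fun M N => by
    rw [← map_mul φ, ← ofAdd_add]; rfl
  have h0 : ψ 0 = 1 := map_one φ
  have lt : ∀ i j, i < j → ψ (Wg (e5 i) (e5 j)) = w' (e5 i) (e5 j) := fun i j hij => by
    change ∏ k : P, w' (e5 k.1.1) (Wg (e5 i) (e5 j) k.1.1 k.1.2 • e5 k.1.2) = _
    refine (Finset.prod_eq_single (⟨(i, j), hij⟩ : P) (fun k _ hk => ?_) fun t => absurd (Finset.mem_univ _) t).trans ?_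
    · have : Wg (e5 i) (e5 j) k.1.1 k.1.2 = 0 := by
        obtain ⟨⟨a, b⟩, hab⟩ := k
        simp only [ne_eq, Subtype.mk.injEq, Prod.mk.injEq, P] at hk
        simp only [Wg, e5, Pi.single_apply] at hab ⊢
        split_ifs <;> first | rfl | omega
      simp only [this, zero_smul, zr]
    · simp [Wg, e5, hij.ne, hij.ne']
  have h2 : ∀ x y, ψ (Wg x y) = w' x y := fun x y => by
    have wl : ∀ x x' y, Wg (x + x') y = Wg x y + Wg x' y := fun _ _ _ => funext₂ fun _ _ => by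
      simp only [Wg, Pi.add_apply]; ring
    have wr : ∀ x y y', Wg x (y + y') = Wg x y + Wg x y' := fun _ _ _ => funext₂ fun _ _ => by
      simp only [Wg, Pi.add_apply]; ring
    induction x using v5_induction with
    | h0 => exact (congrArg ψ (funext₂ fun _ _ => by simp [Wg])).trans (h0.trans (Subtype.ext (h.zero_left _).symm))
    | ha x x' a b => rw [wl, h1, al, a, b]
    | he i =>
    induction y using v5_induction with
    | h0 => exact (congrArg ψ (funext₂ fun _ _ => by simp [Wg])).trans (h0.trans (zr _).symm)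
    | ha x x' a b => rw [wr, h1, ar, a, b]
    | he j =>
    rcases lt_trichotomy i j with t | rfl | t
    · exact lt i j t
    · exact (congrArg ψ (funext₂ fun _ _ => by simp [Wg, mul_comm])).trans (h0.trans (Subtype.ext (h.alt _).symm))
    · refine (congrArg ψ (funext₂ fun _ _ => ?_)).trans ((lt j i t).trans (Subtype.ext (h.symm _ _)))
      simp only [Wg, CharTwo.sub_eq_add]; ring
  have sur : Function.Surjective φ := fun a => by
    obtain ⟨_, ⟨c, rfl⟩, e⟩ := h.le_of (K := φ.range.map A.subtype) (fun x y => ⟨_, ⟨_, h2 x y⟩, rfl⟩) a.2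
    exact ⟨c, Subtype.ext e⟩
  have inj := (sur.bijective_of_nat_card_le (by
    rw [h.card, Nat.card_eq_fintype_card, Fintype.card_multiplicative, Fintype.card_fun, ZMod.card,
      show Fintype.card P = 10 by decide])).1
  refine ⟨fun M => ψ M, fun M N => congrArg Subtype.val (h1 M N), fun x y => congrArg Subtype.val (h2 x y),
    fun M N a b e => funext₂ fun i j => ?_, fun a ha => ?_⟩
  · have := congrFun (Multiplicative.ofAdd.injective (inj (Subtype.ext e)))
    rcases lt_trichotomy i j with t | rfl | t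
    exacts [this ⟨(i, j), t⟩, by rw [a.1, b.1], by rw [a.2, b.2, this ⟨(j, i), t⟩]]
  · obtain ⟨c, hc⟩ := sur ⟨a, ha⟩
    refine ⟨fun i j => if t : i < j then c.toAdd ⟨(i, j), t⟩ else if t : j < i then -c.toAdd ⟨(j, i), t⟩ else 0,
      ⟨fun i => by simp, fun i j => ?_⟩, congrArg Subtype.val ((congrArg φ ?_).trans hc)⟩
    · rcases lt_trichotomy i j with t | rfl | t
      exacts [by simp [t, t.not_gt], by simp, by simp [t, t.not_gt]]
    · exact congrArg Multiplicative.ofAdd (funext fun k => dif_pos k.2)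

theorem mul_eq_iff {x y u v a b : V5} : w x y * w u v = w a b ↔ Wg x y + Wg u v = Wg a b := by
  obtain ⟨ψ, h1, h2, h3, -⟩ := h.exists_psi
  rw [← h2, ← h2, ← h2, ← h1]
  exact ⟨h3 _ _ (by simpa only [CharTwo.sub_eq_add] using (alt_Wg x y).sub (alt_Wg u v)) (alt_Wg a b), congrArg ψ⟩

theorem eq_iff {x y u v : V5} : w x y = w u v ↔ Wg x y = Wg u v := by
  obtain ⟨ψ, h1, h2, h3, -⟩ := h.exists_psi
  rw [← h2, ← h2]
  exact ⟨h3 _ _ (alt_Wg x y) (alt_Wg u v), congrArg ψ⟩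

theorem eq_one_iff' {x y : V5} : w x y = 1 ↔ Wg x y = 0 := by
  rw [← h.zero_left 0, h.eq_iff, show Wg 0 0 = 0 from funext₂ fun _ _ => by simp [Wg]]

theorem eq_one_iff {x y : V5} : w x y = 1 ↔ x = 0 ∨ y = 0 ∨ x = y := by
  refine ⟨fun e => Wg_eq_zero (h.eq_one_iff'.1 e), ?_⟩
  rintro (rfl | rfl | rfl)
  exacts [h.zero_left _, h.zero_right _, h.alt _]

theorem cases_of_eq {x y u v : V5} (e : w x y = w u v) (h1 : w x y ≠ 1) : u = x ∨ u = y ∨ u = x + y :=
  (sp_of_Wg_eq (h.eq_iff.1 e) (mt h.eq_one_iff'.2 h1)).cases.resolve_left fun t => h1 (by rw [e, t, h.zero_left])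

theorem add_self_right (x y : V5) : w x (x + y) = w x y := by rw [h.addr, h.alt, one_mul]

theorem on_one (p : V5) : On w p 1 := ⟨0, (h.zero_right p).symm⟩

theorem on_mul {p : V5} {a b : G} (ha : On w p a) (hb : On w p b) : On w p (a * b) := by
  obtain ⟨q, rfl⟩ := ha
  obtain ⟨r, rfl⟩ := hb
  exact ⟨q + r, (h.addr _ _ _).symm⟩

theorem on_of_sp {x y p : V5} (hp : Sp x y p) (h0 : p ≠ 0) : On w p (w x y) := by
  rcases hp.cases with rfl | rfl | rfl | rfl
  exacts [absurd rfl h0, ⟨y, rfl⟩, ⟨x, h.symm _ _⟩, ⟨y, by rw [h.addl, h.alt, mul_one]⟩]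

/-- two decomposable vectors with decomposable product lie in a common star -/
theorem meet {x y u v a b : V5} (e : w x y * w u v = w a b) : ∃ p ≠ 0, On w p (w x y) ∧ On w p (w u v) := by
  have k : ∀ x y : V5, ∃ p ≠ 0, On w p (w x y) := fun x y => by
    by_cases t : x = 0
    · obtain ⟨p, hp, -⟩ := exists_out' 0 0
      exact ⟨p, hp, by rw [t, h.zero_left]; exact h.on_one p⟩
    · exact ⟨x, t, y, rfl⟩
  by_cases h1 : w x y = 1
  · exact (k u v).imp fun p hp => ⟨hp.1, h1 ▸ h.on_one p, hp.2⟩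
  by_cases h2 : w u v = 1
  · exact (k x y).imp fun p hp => ⟨hp.1, hp.2, h2 ▸ h.on_one p⟩
  have h3 := mt h.eq_one_iff.2 h2
  rw [not_or, not_or, ← v5_add_eq_zero (x := u) (y := v)] at h3
  rcases sp_of_add (h.mul_eq_iff.1 e) (mt h.eq_one_iff'.2 h1) with t | t | t
  exacts [⟨u, h3.1, h.on_of_sp t h3.1, v, rfl⟩, ⟨v, h3.2.1, h.on_of_sp t h3.2.1, u, h.symm _ _⟩,
    ⟨u + v, h3.2.2, h.on_of_sp t h3.2.2, h.on_of_sp ⟨1, 1, by simp⟩ h3.2.2⟩]

theorem two_on {p p' : V5} {a : G} (hp : On w p a) (hp' : On w p' a) (hne : p' ≠ p) (h1 : a ≠ 1) : a = w p p' := by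
  obtain ⟨q, rfl⟩ := hp
  obtain ⟨r, e⟩ := hp'
  rcases h.cases_of_eq e h1 with rfl | rfl | rfl
  exacts [absurd rfl hne, rfl, (h.add_self_right _ _).symm]

theorem star_inj {p p' : V5} (h0 : p ≠ 0) (H : ∀ q, On w p' (w p q)) : p = p' := by
  obtain ⟨q, h1, h2, h3, h4⟩ := exists_out' p p'
  obtain ⟨r, e⟩ := H q
  rcases h.cases_of_eq e (fun t => (h.eq_one_iff.1 t).elim h0 fun t => t.elim h1 h2.symm) with t | t | t
  exacts [t.symm, absurd t.symm h3, absurd (by rw [t, ← add_assoc, v5_add_self, zero_add]) h4]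

/-- automorphisms preserving the decomposable vectors map stars into stars -/
theorem star (f : G ≃* G) (hf : ∀ x y, ∃ u v, f (w x y) = w u v) (x : V5) :
    ∃ p ≠ 0, ∀ y, On w p (f (w x y)) := by
  have mt : ∀ y y', ∃ p ≠ 0, On w p (f (w x y)) ∧ On w p (f (w x y')) := fun y y' => by
    obtain ⟨a, b, e⟩ := hf x (y + y')
    obtain ⟨c, d, e1⟩ := hf x y
    obtain ⟨c', d', e2⟩ := hf x y'
    rw [h.addr, map_mul, e1, e2] at e
    rw [e1, e2]; exact h.meet e
  have inj : x ≠ 0 → ∀ {y y'}, f (w x y) = f (w x y') → y = y' ∨ y = x + y' := fun hx y y' e => by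
    have : w x (y + y') = 1 := by rw [h.addr, f.injective e, h.sq]
    rcases h.eq_one_iff.1 this with t | t | t
    exacts [absurd t hx, .inl (v5_add_eq_zero.1 t), .inr (by rw [t, add_assoc, v5_add_self, add_zero])]
  by_cases hx : x = 0
  · obtain ⟨p, hp, -⟩ := exists_out' 0 0
    exact ⟨p, hp, fun y => by rw [hx, h.zero_left, map_one]; exact h.on_one p⟩
  obtain ⟨y1, a1, a2, -⟩ := exists_out' x 0
  obtain ⟨y2, b1, b2, b3, b4⟩ := exists_out' x y1
  obtain ⟨p, hp, ⟨q, hq⟩, r, hr⟩ := mt y1 y2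
  have n1 : ∀ {y}, y ≠ 0 → y ≠ x → f (w x y) ≠ 1 := fun h1 h2 e =>
    (h.eq_one_iff.1 (f.map_eq_one_iff.1 e)).elim hx fun t => t.elim h1 h2.symm
  have key : ∀ y, ¬ On w p (f (w x y)) → ∃ α β : ZMod 2, f (w x (α • y1 + β • y2 + y)) = w q r := fun y hy => by
    obtain ⟨p1, -, ⟨q1, t1⟩, t2⟩ := mt y1 y
    obtain ⟨p2, -, ⟨q2, t3⟩, t4⟩ := mt y2 y
    have c1 : p1 ≠ p := fun e => hy (e ▸ t2)
    have c2 : p2 ≠ p := fun e => hy (e ▸ t4)
    have c3 : p2 ≠ p1 := fun e => by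
      have := (h.two_on ⟨r, hr⟩ ⟨q2, t3⟩ c2 (n1 b1 b2)).trans (e ▸ h.two_on ⟨q, hq⟩ ⟨q1, t1⟩ c1 (n1 a1 a2)).symm
      exact (inj hx this).elim b3 b4
    have c4 := h.two_on t2 t4 c3 fun e => hy (e ▸ h.on_one p)
    have d1 := (h.cases_of_eq (hq.symm.trans t1) (hq ▸ n1 a1 a2)).resolve_left c1
    have d2 := (h.cases_of_eq (hr.symm.trans t3) (hr ▸ n1 b1 b2)).resolve_left c2
    have s : ∀ a b g, w a b * (w a b * g) = g := fun a b g => by rw [← mul_assoc, h.sq, one_mul]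
    rcases d1 with rfl | rfl <;> rcases d2 with rfl | rfl
    · exact ⟨0, 0, by simpa using c4⟩
    · exact ⟨1, 0, by simp only [one_smul, zero_smul, add_zero, h.addr, map_mul, c4, hq, h.symm p1 p, s]⟩
    · exact ⟨0, 1, by simp only [one_smul, zero_smul, zero_add, h.addr, h.addl, map_mul, c4, hr, s]⟩
    · exact ⟨1, 1, by simp only [one_smul, h.addr, h.addl, map_mul, c4, hq, hr, h.alt, one_mul, h.symm q p,
        h.comm p q p r, mul_assoc, ← mul_assoc (w p q) (w p r), s]⟩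
  refine ⟨p, hp, fun y => by_contra fun hy => ?_⟩
  obtain ⟨y', hy'⟩ := exists_out x y1 y2 y
  obtain ⟨δ, hδ⟩ : ∃ δ : ZMod 2, ¬ On w p (f (w x (δ • y + y'))) := by
    by_cases t : On w p (f (w x y'))
    · refine ⟨1, fun t' => hy ?_⟩
      have := h.on_mul t' t
      rwa [← map_mul, ← h.addr, one_smul, add_assoc, v5_add_self, add_zero] at this
    · exact ⟨0, by simpa using t⟩
  obtain ⟨α, β, e⟩ := key y hy
  obtain ⟨α', β', e'⟩ := key _ hδ
  rcases inj hx (e'.trans e.symm) with t | t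
  · exact hy' 0 (α - α') (β - β') (1 - δ) (by linear_combination (norm := module) t)
  · exact hy' 1 (α - α') (β - β') (1 - δ) (by linear_combination (norm := module) t)

theorem exists_actsW {n : G} (h1 : ∀ x y, ∃ u v, n * w x y * n⁻¹ = w u v)
    (h2 : ∀ x y, ∃ u v, n⁻¹ * w x y * n⁻¹⁻¹ = w u v) : ∃ g, ActsW w n g := by
  classical
  choose p p0 hp using h.star (MulAut.conj n) h1
  choose p' _ hp' using h.star (MulAut.conj n⁻¹) h2
  have pp : ∀ x, x ≠ 0 → x = p' (p x) := fun x hx => h.star_inj hx fun y => by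
    obtain ⟨q, e⟩ := hp x y
    have := hp' (p x) q
    rwa [← e, ← MulAut.mul_apply, ← map_mul, inv_mul_cancel, map_one, MulAut.one_apply] at this
  let π : V5 → V5 := fun x => if x = 0 then 0 else p x
  have π0 : ∀ x, π x = 0 ↔ x = 0 := fun x => by by_cases t : x = 0 <;> simp [π, t, p0]
  have inj : Function.Injective π := fun x y e => by
    by_cases hx : x = 0
    · rw [hx, ((π0 y).1 (e ▸ (π0 x).2 hx))]
    have hy : y ≠ 0 := fun t => hx ((π0 x).1 (e ▸ (π0 y).2 t))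
    simp only [π, hx, hy, if_false] at e
    rw [pp x hx, e, ← pp y hy]
  have act : ∀ x y, n * w x y * n⁻¹ = w (π x) (π y) := fun x y => by
    by_cases t : w x y = 1
    · rw [t, h.eq_one_iff.2 ((h.eq_one_iff.1 t).imp (π0 x).2 (Or.imp (π0 y).2 (congrArg π)))]; simp
    have t' := mt h.eq_one_iff.2 t
    rw [not_or, not_or] at t'
    have := h.two_on (hp x y) (h.symm x y ▸ hp y x) (fun e => t'.2.2 (by rw [pp x t'.1, ← e, ← pp y t'.2.1]))
      (by simpa using t)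
    simpa [π, t'.1, t'.2.1] using this
  have add : ∀ x y, π (x + y) = π x + π y := fun x y => by
    have k : ∀ z, z ≠ 0 → π (x + y) + (π x + π y) = 0 ∨ π (x + y) + (π x + π y) = π z := fun z hz =>
      (h.eq_one_iff.1 (by rw [h.addl, h.addl, ← act, ← act, ← act, conj_mul, conj_mul, ← h.addl, h.sq]; simp)).imp_right
        fun t => t.resolve_left (mt (π0 z).1 hz)
    obtain ⟨z, hz, -⟩ := exists_out' 0 0
    obtain ⟨z', hz', t, -⟩ := exists_out' z 0
    exact v5_add_eq_zero.1 ((k z hz).elim id fun a => (k z' hz').elim id fun b => absurd (inj (b.symm.trans a)) t)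
  let L : V5 →ₗ[ZMod 2] V5 := (AddMonoidHom.mk' π add).toZModLinearMap 2
  have e : ∀ x, LinearMap.toMatrix' L *ᵥ x = π x := fun x => LinearMap.toMatrix'_mulVec L x
  have : IsUnit (LinearMap.toMatrix' L) := mulVec_injective_iff_isUnit.1 fun x y t => inj (by rw [← e, ← e, t])
  exact ⟨⟨_, (z2 _).resolve_left ((isUnit_iff_isUnit_det _).1 this).ne_zero⟩, fun x y => by rw [act, ← e, ← e]⟩

omit h in
theorem mulVec_inj (g : L5) : Function.Injective g.1.mulVec :=
  mulVec_injective_iff_isUnit.2 ((isUnit_iff_isUnit_det _).2 (by rw [g.2]; exact isUnit_one))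

theorem actsW_one_iff {n : G} : ActsW w n 1 ↔ n ∈ 𝐂(A) := by
  simp only [ActsW, L5_one, mul_inv_eq_iff_eq_mul]
  exact ⟨fun H => mem_cent_iff.2 fun a ha => mem_cent1_iff.1 (h.le_of (K := 𝐂[n])
    (fun x y => mem_cent1_iff.2 (H x y).symm) ha), fun H x y => (mem_cent_iff.1 H _ (h.w_mem x y)).symm⟩

theorem actsW_unique {n : G} {g k : L5} (H : ActsW w n g) (H' : ActsW w n k) : g = k := by
  have t := H'.inv.mul H
  rw [inv_mul_cancel] at t
  simp only [ActsW, one_mul, inv_one, mul_one] at t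
  rw [eq_comm, ← inv_mul_eq_one]
  generalize k⁻¹ * g = l at t
  refine Subtype.ext (Matrix.ext_of_mulVec_single fun i => ?_)
  exact (h.star_inj (e5_ne i) fun q => ⟨_, t _ q⟩).symm.trans (L5_one _).symm

theorem actsW_eq_one_iff {n : G} {g : L5} (H : ActsW w n g) : g = 1 ↔ n ∈ 𝐂(A) :=
  ⟨fun e => h.actsW_one_iff.1 (e ▸ H), fun e => h.actsW_unique H (h.actsW_one_iff.2 e)⟩

theorem actsW_norm {n : G} {g : L5} (H : ActsW w n g) : n ∈ 𝐍(A) := by
  have k : ∀ {n g}, ActsW w n g → ∀ a ∈ A, n * a * n⁻¹ ∈ A := fun {n g} H a ha =>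
    h.le_of (K := A.comap (MulAut.conj n).toMonoidHom) (fun x y => by
      change n * _ * n⁻¹ ∈ A
      rw [H]; exact h.w_mem _ _) ha
  exact mem_normalizer_iff.2 fun v => ⟨k H v, fun hv => by simpa [mul_assoc] using k H.inv _ hv⟩

theorem exists_rho' {N : Subgroup G} (hD : ∀ n ∈ N, ∃ g, ActsW w n g) :
    ∃ ρ : N →* L5, (∀ (n : N) x y, (n : G) * w x y * (n : G)⁻¹ = w ((ρ n).1 *ᵥ x) ((ρ n).1 *ᵥ y)) ∧
      ∀ n, ρ n = 1 ↔ (n : G) ∈ 𝐂(A) := by
  choose f hf using hD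
  exact ⟨MonoidHom.mk' (fun m => f m m.2) fun a b => h.actsW_unique (hf _ _) ((hf _ _).mul (hf _ _)),
    fun m => hf _ _, fun m => h.actsW_eq_one_iff (hf _ _)⟩

theorem exists_rho {N : Subgroup G} (hD : ∀ n ∈ N, ∀ x y, ∃ u v, n * w x y * n⁻¹ = w u v) :
    ∃ ρ : N →* L5, (∀ (n : N) x y, (n : G) * w x y * (n : G)⁻¹ = w ((ρ n).1 *ᵥ x) ((ρ n).1 *ᵥ y)) ∧
      ∀ n, ρ n = 1 ↔ (n : G) ∈ 𝐂(A) :=
  h.exists_rho' fun n hn => h.exists_actsW (hD n hn) (hD _ (inv_mem hn))

theorem normal_form {a : G} (ha : a ∈ A) : (∃ x y, w x y = a) ∨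
    ∃ x y u v, LinearIndependent (ZMod 2) ![x, y, u, v] ∧ w x y * w u v = a := by
  obtain ⟨ψ, h1, h2, -, h3⟩ := h.exists_psi
  obtain ⟨M, hM, rfl⟩ := h3 a ha
  rcases hM.normal_form with ⟨x, y, rfl⟩ | ⟨x, y, u, v, t, rfl⟩
  exacts [.inl ⟨x, y, (h2 x y).symm⟩, .inr ⟨x, y, u, v, t, by rw [h1, h2, h2]⟩]

theorem mul_self {a : G} (ha : a ∈ A) : a * a = 1 := by
  rcases h.normal_form ha with ⟨x, y, rfl⟩ | ⟨x, y, u, v, -, rfl⟩
  · exact h.sq x y
  · rw [mul_assoc, ← mul_assoc (w u v), ← h.comm, mul_assoc, h.sq, mul_one, h.sq]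

theorem elem : IsElementaryAbelian 2 A := ⟨h.isMulCommutative, fun a ha => by rw [pow_two, h.mul_self ha]⟩

theorem indep_of_ne_one {x y : V5} (h1 : w x y ≠ 1) : LinearIndependent (ZMod 2) ![x, y] :=
  LinearIndependent.pair_iff.2 fun s t e => by
    have := mt h.eq_one_iff.2 h1
    rw [← v5_add_eq_zero (x := x) (y := y)] at this
    rcases z2 s with rfl | rfl <;> rcases z2 t with rfl | rfl <;> simp_all

theorem ncard_dec : {g | g ≠ 1 ∧ ∃ x y, w x y = g}.ncard = 155 := by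
  classical
  set P := ((Finset.univ : Finset V5).erase 0).offDiag with hP
  have mP : ∀ p, p ∈ P ↔ w p.1 p.2 ≠ 1 := fun p => by simp [hP, h.eq_one_iff]
  have : {g | g ≠ 1 ∧ ∃ x y, w x y = g} = ↑(P.image fun p => w p.1 p.2) := by
    ext g
    simp only [Finset.coe_image, Set.mem_image, Finset.mem_coe, mP, Set.mem_setOf_eq, Prod.exists]
    exact ⟨fun ⟨a, x, y, e⟩ => ⟨x, y, e ▸ a, e⟩, fun ⟨x, y, a, e⟩ => ⟨e ▸ a, x, y, e⟩⟩
  have k := Finset.card_eq_sum_card_image (fun p : V5 × V5 => w p.1 p.2) P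
  rw [Finset.sum_congr rfl (g := fun _ => 6) fun v hv => ?_, Finset.sum_const, smul_eq_mul] at k
  · have c : P.card = 930 := by simp [hP, Finset.offDiag_card]
    rw [this, Set.ncard_coe_finset]; omega
  · obtain ⟨⟨x, y⟩, ht, rfl⟩ := Finset.mem_image.1 hv
    rw [mP] at ht
    have t := mt h.eq_one_iff.2 ht
    simp only [not_or] at t
    have c : ({x, y, x + y} : Finset V5).card = 3 :=
      Finset.card_eq_three.2 ⟨_, _, _, t.2.2, by simpa using t.2.1, by simpa using t.1, rfl⟩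
    have o : ∀ {p}, p ∈ ({x, y, x + y} : Finset V5) → On w p (w x y) := fun hp => by
      simp only [Finset.mem_insert, Finset.mem_singleton] at hp
      rcases hp with rfl | rfl | rfl
      exacts [⟨y, rfl⟩, ⟨x, h.symm _ _⟩, h.on_of_sp ⟨1, 1, by simp⟩ (mt v5_add_eq_zero.1 t.2.2)]
    rw [show 6 = ({x, y, x + y} : Finset V5).offDiag.card by rw [Finset.offDiag_card, c]]
    congr 1
    ext ⟨u, v⟩
    rw [Finset.mem_filter, mP, Finset.mem_offDiag]
    refine ⟨fun ⟨a, b⟩ => ⟨by simpa using h.cases_of_eq b.symm ht, by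
      simpa using h.cases_of_eq (b.symm.trans (h.symm _ _)) ht, fun e => a (h.eq_one_iff.2 (.inr (.inr e)))⟩,
      fun ⟨a, b, e⟩ => ?_⟩
    have := h.two_on (o a) (o b) e.symm ht
    exact ⟨this ▸ ht, this.symm⟩

theorem ncard_indec : {g | g ∈ A ∧ ¬ ∃ x y, w x y = g}.ncard = 868 := by
  haveI := h.finite
  have f : (A : Set G).Finite := Set.toFinite _
  have : (A : Set G) = {1} ∪ ({g | g ≠ 1 ∧ ∃ x y, w x y = g} ∪ {g | g ∈ A ∧ ¬ ∃ x y, w x y = g}) := by
    ext g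
    constructor
    · intro hg
      by_cases t : g = 1
      · exact .inl t
      by_cases t' : ∃ x y, w x y = g
      exacts [.inr (.inl ⟨t, t'⟩), .inr (.inr ⟨hg, t'⟩)]
    · rintro (rfl | ⟨-, x, y, rfl⟩ | hg)
      exacts [one_mem _, h.w_mem x y, hg.1]
  have c := h.card
  have f' := this ▸ f
  rw [Set.finite_union, Set.finite_union] at f'
  rw [← SetLike.coe_sort_coe, Nat.card_coe_set_eq, this, Set.ncard_union_eq _ f'.1 (f'.2.1.union f'.2.2),
    Set.ncard_union_eq _ f'.2.1 f'.2.2, h.ncard_dec, Set.ncard_singleton] at c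
  · omega
  · exact Set.disjoint_left.2 fun g a b => b.2 a.2
  · rw [Set.disjoint_singleton_left]
    rintro (a | a)
    exacts [a.1 rfl, a.2 ⟨0, 0, h.alt 0⟩]

section onto
variable {N : Subgroup G} (h1 : ∀ n ∈ N, ∃ g, ActsW w n g) (h2 : ∀ g, ∃ n ∈ N, ActsW w n g)
include h1 h2

theorem orbit_dec {a : G} (ha : a ≠ 1) (hd : ∃ x y, w x y = a) :
    {v | ∃ n ∈ N, n * a * n⁻¹ = v} = {g | g ≠ 1 ∧ ∃ x y, w x y = g} := by
  obtain ⟨x, y, rfl⟩ := hd
  ext v
  constructor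
  · rintro ⟨n, hn, rfl⟩
    obtain ⟨g, hg⟩ := h1 n hn
    exact ⟨by simpa using ha, _, _, (hg x y).symm⟩
  · rintro ⟨hv, u, v, rfl⟩
    obtain ⟨g, hg⟩ := exists_L5 (by norm_num) (h.indep_of_ne_one ha)
    obtain ⟨k, hk⟩ := exists_L5 (by norm_num) (h.indep_of_ne_one hv)
    obtain ⟨m, hm, H⟩ := h2 g
    obtain ⟨n, hn, H'⟩ := h2 k
    have e := H _ _ ▸ congrArg₂ w (hg 0) (hg 1)
    have e' := H' _ _ ▸ congrArg₂ w (hk 0) (hk 1)
    exact ⟨n * m⁻¹, mul_mem hn (inv_mem hm), (congrArg (fun t => n * m⁻¹ * t * (n * m⁻¹)⁻¹) e).symm.trans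
      (Eq.trans (by group) e')⟩

theorem orbit_indec {a : G} (ha : a ∈ A) (hd : ¬ ∃ x y, w x y = a) :
    {v | ∃ n ∈ N, n * a * n⁻¹ = v} = {g | g ∈ A ∧ ¬ ∃ x y, w x y = g} := by
  have k : ∀ {a}, a ∈ A → (¬ ∃ x y, w x y = a) →
      ∃ n ∈ N, n * (w (e5 0) (e5 1) * w (e5 2) (e5 3)) * n⁻¹ = a := fun ha hd => by
    obtain ⟨x, y, u, v, t, rfl⟩ := (h.normal_form ha).resolve_left hd
    obtain ⟨g, hg⟩ := exists_L5 (by norm_num) t
    obtain ⟨m, hm, H⟩ := h2 g
    exact ⟨m, hm, by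
      rw [← conj_mul, H, H]
      exact congrArg₂ _ (congrArg₂ w (hg 0) (hg 1)) (congrArg₂ w (hg 2) (hg 3))⟩
  ext v
  constructor
  · rintro ⟨n, hn, rfl⟩
    obtain ⟨g, hg⟩ := h1 n hn
    refine ⟨conj_mem_of_mem_normalizer (h.actsW_norm hg) ha, fun ⟨x, y, e⟩ => hd ⟨_, _, (hg.inv x y).symm.trans ?_⟩⟩
    rw [e]; group
  · rintro ⟨hv, hv'⟩
    obtain ⟨m, hm, rfl⟩ := k ha hd
    obtain ⟨n, hn, rfl⟩ := k hv hv'
    exact ⟨n * m⁻¹, mul_mem hn (inv_mem hm), by group⟩

theorem ncard_orbit_dec {a : G} (ha : a ≠ 1) (hd : ∃ x y, w x y = a) :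
    {v | ∃ n ∈ N, n * a * n⁻¹ = v}.ncard = 155 := by rw [h.orbit_dec h1 h2 ha hd, h.ncard_dec]

theorem ncard_orbit_indec {a : G} (ha : a ∈ A) (hd : ¬ ∃ x y, w x y = a) :
    {v | ∃ n ∈ N, n * a * n⁻¹ = v}.ncard = 868 := by rw [h.orbit_indec h1 h2 ha hd, h.ncard_indec]

theorem exists_orbits : ∃ a b : G, a ∈ A ∧ b ∈ A ∧ {v | ∃ n ∈ N, n * a * n⁻¹ = v}.ncard = 155 ∧
    {v | ∃ n ∈ N, n * b * n⁻¹ = v}.ncard = 868 := by
  obtain ⟨a, ha, x, y, rfl⟩ := Set.nonempty_of_ncard_ne_zero (h.ncard_dec.trans_ne (by norm_num))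
  obtain ⟨b, hb, hb'⟩ := Set.nonempty_of_ncard_ne_zero (h.ncard_indec.trans_ne (by norm_num))
  exact ⟨_, b, h.w_mem x y, hb, h.ncard_orbit_dec h1 h2 ha ⟨x, y, rfl⟩, h.ncard_orbit_indec h1 h2 hb hb'⟩

theorem irred {W : Subgroup G} (hW : W ≤ A) (hn : N ≤ 𝐍(W)) : W = ⊥ ∨ W = A := by
  haveI := h.finite
  refine or_iff_not_imp_left.2 fun h0 => ?_
  obtain ⟨⟨a, ha⟩, a1⟩ := ne_bot_iff_exists_ne_one.1 h0
  have o : {v | ∃ n ∈ N, n * a * n⁻¹ = v} ⊆ W := by
    rintro _ ⟨n, hn', rfl⟩; exact conj_mem_of_mem_normalizer (hn hn') ha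
  by_cases hd : ∃ x y, w x y = a
  · rw [h.orbit_dec h1 h2 (fun e => a1 (Subtype.ext e)) hd] at o
    exact le_antisymm hW (h.le_of fun x y => by
      by_cases t : w x y = 1
      exacts [t ▸ one_mem _, o ⟨t, x, y, rfl⟩])
  · have c := Set.ncard_le_ncard o ((Set.toFinite (A : Set G)).subset hW)
    rw [h.ncard_orbit_indec h1 h2 (hW ha) hd, ← Nat.card_coe_set_eq, SetLike.coe_sort_coe] at c
    have e := card_mul_relIndex hW
    rw [h.card] at e
    refine le_antisymm hW (relIndex_eq_one.1 ?_)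
    rcases (by omega : W.relIndex A = 0 ∨ W.relIndex A = 1 ∨ 2 ≤ W.relIndex A) with t | t | t
    · simp [t] at e
    · exact t
    · nlinarith

end onto

end Wedge

end CA.XS
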